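import Cfsg.Agent.OD.Pre
import Cfsg.Agent.H8.DQ.F0
set_option autoImplicit false
set_option maxRecDepth 100000
set_option Elab.async false
set_option linter.all false
namespace CfH8.DQ
open CfH6 CfH6.D MulAction
theorem p0 : Rng (P.chk) 0 279 := rng_of 0 2 23 279 (by decide +kernel)
end CfH8.DQ
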